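import Cfsg.Agent.H778.EP.OmAsm
import Cfsg.Agent.H567.EP.Om
import Cfsg.Agent.H371.EP.OmPointRow
import Cfsg.Agent.H112.OC2.Final
import Cfsg.Agent.H807.EP.OmPair
import Cfsg.Agent.H681.EP.OmC3Asm
import Cfsg.Agent.H487.EP.OmC4C7
import Cfsg.Agent.H487.EP.OmC7
import Cfsg.Agent.H96.C5.OmRow
import Cfsg.Agent.H491.EP.OmC6

/-!
# S3499: `OrthNonRes` (helper419)
-/

set_option autoImplicit false

namespace Cfsg.Agent.H419.EP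

open Cfsg.Agent.H778.EP

theorem omC6 : OmC6 := by
  rintro Q _ _ hs A Γ h F _ _ ι _ _ Qf m h7 hQ ⟨-, r, j, R, hRA, hRn, -, habs, hR, hchar, -, hcard, hc, ht, -⟩
  exact Cfsg.Agent.H491.EP.om_c6 h hQ h7 m hRA hRn habs hR hchar hcard hc ht

theorem orthNonRes_plug (hQ2 : Cfsg.Agent.H681.EP.OmC3Q) (hK : Cfsg.Agent.H487.EP.KillThree) : OrthNonRes :=
  have hC3 : OmC3 := Cfsg.Agent.H681.EP.omC3_of hQ2
  orthNonRes_of Cfsg.Agent.H567.EP.omRed Cfsg.Agent.H371.EP.omPoint Cfsg.Agent.H112.OC2.omC2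
    Cfsg.Agent.H807.EP.omC2t2 Cfsg.Agent.H807.EP.omC2b hC3 (Cfsg.Agent.H487.EP.omC4_of hK Cfsg.Agent.H807.EP.omC2b hC3)
    Cfsg.Agent.H96.C5.omC5 omC6 Cfsg.Agent.H487.EP.omC7

end Cfsg.Agent.H419.EP
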